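import Cfsg.Agent.Lib.ThreeT.F24P.MemFix

/-!
# A variant of the bound for the centralizer: the images of the point `0` are given
-/

set_option autoImplicit false
set_option linter.style.haveILetI false
set_option linter.unusedSectionVars false
set_option linter.unusedVariables false
set_option linter.style.longLine false
set_option linter.unnecessarySimpa false
set_option maxRecDepth 100000

namespace Cfsg.Agent.Lib.ThreeT.F24P.MemFix

open Cfsg.Agent.Lib.TC.Core Cfsg.Agent.Lib.TC.Pres Cfsg.Agent.Lib.TC.Perm Cfsg.Agent.Lib.TC.Main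
  Cfsg.Agent.Lib.TC.Chain Cfsg.Agent.Lib.TC.Chain.PermLev Cfsg.Agent.Lib.TC.G.Fi24
  Cfsg.Agent.Lib.TC.D.Fi24a.Tab Cfsg.Agent.Lib.TC.D.Fi24a.Ok
  Cfsg.Agent.Lib.ThreeT.F22.Sift Cfsg.Agent.Lib.ThreeT.F24P.Base Cfsg.Agent.Lib.ThreeT.F24P.Act Cfsg.Agent.Lib.ThreeT.F24P.DPts

variable {ls l₁ l₂ : List Lev} {ts : List Nat}

/-- The bound for the order of the centralizer of `x`, the images of `0` under the centralizer being in `F`. -/
theorem card_cent_fix2 (h : Ch ls ts) (hs : ls = l₁ ++ l₂) {xw : List Nat} (hxw : ∀ z ∈ xw, z < pt.k)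
    (R : Nat) (p0 : Fin pt.n)
    (hb : l₁.map Lev.p = (List.range R).map (fun j => pt.val (rpw xw (j + 1)) p0.1)) (rs A : List Nat)
    (hrs : ∀ r ∈ rs, r ≤ R)
    (hchk : chkS ls ts xw rs A 0 306936 = true)
    (F : List Nat) (hF : ∀ c ∈ Subgroup.centralizer ({wv xw} : Set Γ), (phi c 0).1 ∈ F) :
    Nat.card (Subgroup.centralizer ({wv xw} : Set Γ)) ≤ (prodM l₂ * A.length) * F.length := by
  have hC0 : Nat.card (Subgroup.centralizer ({wv xw} : Set Γ) ⊓ St0 : Subgroup Γ) ≤ prodM l₂ * A.length := by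
    refine card_le_of_fibers _ (StL ((l₁.map Lev.p).reverse ++ [0])) _ ?_ (fun c => (phi c p0).1) A ?_ ?_
    · rw [card_StL]
      subst hs
      exact (Cfsg.Agent.Lib.ThreeT.F22.Cnt.card_after act l₁ l₂ [0] h.hlev h.card).le
    · rintro c ⟨hc, hc0⟩
      exact Ch.mem_fix h hs hxw hxw R p0 hb rs A hrs hchk (mem_cent_iff.1 hc) (mem_St0.1 hc0)
    · rintro c ⟨hc, hc0⟩ c' ⟨hc', hc0'⟩ hf
      have h1 : phi (c⁻¹ * c') p0 = p0 := by
        have e : phi c' p0 = phi c p0 := Fin.ext hf.symm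
        rw [map_mul, map_inv, Equiv.Perm.mul_apply, e]
        simp
      have h0 : phi (c⁻¹ * c') 0 = 0 := by
        have e0 := mem_St0.1 hc0
        have e0' := mem_St0.1 hc0'
        rw [map_mul, map_inv, Equiv.Perm.mul_apply, e0']
        have e1 : (phi c)⁻¹ 0 = 0 := by
          conv_lhs => rw [← e0]
          simp
        exact e1
      refine ⟨⟨_, rfl⟩, fun b hb' => ?_⟩
      rcases List.mem_append.1 hb' with hb' | hb'
      · have h2 : b.1 ∈ l₁.map Lev.p := by simpa using hb'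
        rw [hb] at h2
        obtain ⟨j, _, hj⟩ := List.mem_map.1 h2
        have hi' : b = phi (wv xw ^ (j + 1)) p0 := by
          apply Fin.ext
          rw [← wv_rpw, phi_val (rpw_lt hxw (j + 1)), ← hj]
        have c1 : Commute c (wv xw) := mem_cent_iff.1 hc
        have c2 : Commute c' (wv xw) := mem_cent_iff.1 hc'
        have c3 : Commute (c⁻¹ * c') (wv xw ^ (j + 1)) := ((c1.pow_right _).inv_left).mul_left (c2.pow_right _)
        rw [hi', ← Equiv.Perm.mul_apply, ← map_mul, c3.eq, map_mul, Equiv.Perm.mul_apply, h1]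
      · have hb'' : b.1 = 0 := by simpa using hb'
        have e : b = 0 := Fin.ext hb''
        rw [e, h0]
  refine le_trans ?_ (Nat.mul_le_mul_right _ hC0)
  refine card_le_of_fibers _ _ _ le_rfl (fun c => (phi c 0).1) F hF ?_
  · intro c hc c' hc' hf
    refine ⟨Subgroup.mul_mem _ (Subgroup.inv_mem _ hc) hc', ?_⟩
    show c⁻¹ * c' ∈ St0
    rw [mem_St0]
    have e : phi c' 0 = phi c 0 := Fin.ext hf.symm
    rw [map_mul, map_inv, Equiv.Perm.mul_apply, e]
    simp

end Cfsg.Agent.Lib.ThreeT.F24P.MemFix
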